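import Mathlib
import Cfsg.Prelude.Def_Solvable
import Cfsg.Prelude.Def_Transfer
import Cfsg.Agent.Lib.Helper11.QuadStable
import Cfsg.Agent.Lib.Helper2.PP.Defs

/-!
# Project PP (S3753, Bender's primitive pairs): the base of the induction

A group `M` with commutative `2`-subgroups normalizing a nontrivial `p`-subgroup `Q` (`p` odd)
has a nontrivial `M`-invariant elementary abelian subgroup `V ≤ Ω₁(Z(Q))` on which every
quadratically acting element of `M` acts trivially.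
-/

set_option autoImplicit false

namespace Cfsg.Agent.Lib.Helper47.PP

open Cfsg.Agent.Lib.Helper11

open scoped commutatorElement

universe u

/-- conjugation-closed subgroups are normalized -/
theorem le_normalizer_of_conj_mem' {G : Type*} [Group G] {K M : Subgroup G}
    (h : ∀ g ∈ K, ∀ w ∈ M, g * w * g⁻¹ ∈ M) : K ≤ Subgroup.normalizer (M : Set G) := by
  intro g hg
  rw [Subgroup.mem_normalizer_iff]
  intro w
  constructor
  · exact h g hg w
  · intro hw
    have h1 := h g⁻¹ (K.inv_mem hg) _ hw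
    have h2 : g⁻¹ * (g * w * g⁻¹) * g⁻¹⁻¹ = w := by group
    rwa [h2] at h1

theorem conj_mem_of_le_normalizer {G : Type*} [Group G] {K M : Subgroup G}
    (h : K ≤ Subgroup.normalizer (M : Set G)) {g w : G} (hg : g ∈ K) (hw : w ∈ M) :
    g * w * g⁻¹ ∈ M :=
  (Subgroup.mem_normalizer_iff.mp (h hg) w).mp hw

/-- A subgroup `D` acting on a nontrivial finite `p`-group `V` through a `p`-group has a
nontrivial fixed point. -/
theorem exists_fixed_of_pow_mem_centralizer {G : Type*} [Group G] {p : ℕ} [Fact p.Prime]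
    (V D : Subgroup G) [Finite V] (hVp : IsPGroup p V) (hV : V ≠ ⊥)
    (hDV : D ≤ Subgroup.normalizer (V : Set G))
    (hD : ∀ d ∈ D, ∃ k : ℕ, d ^ p ^ k ∈ Subgroup.centralizer (V : Set G)) :
    ∃ v ∈ V, v ≠ 1 ∧ ∀ d ∈ D, d * v = v * d := by
  classical
  let φ : D →* MulAut V := V.normalizerMonoidHom.comp (Subgroup.inclusion hDV)
  have hφ : ∀ (d : D) (v : V), ((φ d v : V) : G) = d * v * (d : G)⁻¹ := fun d v => rfl
  have hP : IsPGroup p φ.range := by
    rintro ⟨_, d, rfl⟩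
    obtain ⟨k, hk⟩ := hD d.1 d.2
    refine ⟨k, Subtype.ext ?_⟩
    rw [Subgroup.coe_pow, Subgroup.coe_one, ← map_pow]
    ext v
    rw [hφ, Subgroup.coe_pow]
    have h1 := Subgroup.mem_centralizer_iff.mp hk v v.2
    show (d : G) ^ p ^ k * (v : G) * ((d : G) ^ p ^ k)⁻¹ = v
    rw [← h1, mul_inv_cancel_right]
  have hdvd : p ∣ Nat.card V := by
    rcases hVp.card_eq_or_dvd with h | h
    · exact absurd (Subgroup.card_eq_one.mp h) hV
    · exact h
  have h1 : (1 : V) ∈ MulAction.fixedPoints φ.range V := by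
    intro g
    exact smul_one g
  obtain ⟨b, hb, hb1⟩ := hP.exists_fixed_point_of_prime_dvd_card_of_fixed_point V hdvd h1
  refine ⟨(b : G), b.2, fun h => hb1 (Subtype.ext h.symm), ?_⟩
  intro d hd
  have h2 : φ ⟨d, hd⟩ b = b := hb ⟨φ ⟨d, hd⟩, ⟨_, rfl⟩⟩
  have h3 := congrArg Subtype.val h2
  rw [hφ] at h3
  have h4 : d * (b : G) * d⁻¹ = (b : G) := h3
  calc d * (b : G) = d * (b : G) * d⁻¹ * d := by group
    _ = (b : G) * d := by rw [h4]

/-- The base of the induction. -/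
theorem base_core {G : Type*} [Group G] [Finite G] {p : ℕ} [Fact p.Prime] (hp : p ≠ 2)
    (M Q : Subgroup G) (hQp : IsPGroup p Q) (hQne : Q ≠ ⊥)
    (hQn : M ≤ Subgroup.normalizer (Q : Set G)) (h2 : TwoAb M) :
    ∃ V : Subgroup G, V ≠ ⊥ ∧ V ≤ Q ∧ M ≤ Subgroup.normalizer (V : Set G) ∧
      Cfsg.IsElementaryAbelian p V ∧
      ∀ a ∈ M, ⁅⁅V, Subgroup.zpowers a⁆, Subgroup.zpowers a⁆ = ⊥ →
        a ∈ Subgroup.centralizer (V : Set G) := by
  classical
  -- `W = Ω₁(Z(Q))`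
  let W : Subgroup G :=
    { carrier := {x | x ∈ Q ∧ x ∈ Subgroup.centralizer (Q : Set G) ∧ x ^ p = 1}
      one_mem' := ⟨Q.one_mem, Subgroup.one_mem _, one_pow _⟩
      mul_mem' := by
        rintro x y ⟨hx, hxc, hxp⟩ ⟨hy, hyc, hyp⟩
        refine ⟨Q.mul_mem hx hy, Subgroup.mul_mem _ hxc hyc, ?_⟩
        have hc : Commute x y := Subgroup.mem_centralizer_iff.mp hyc x hx
        rw [hc.mul_pow, hxp, hyp, one_mul]
      inv_mem' := by
        rintro x ⟨hx, hxc, hxp⟩
        exact ⟨Q.inv_mem hx, Subgroup.inv_mem _ hxc, by rw [inv_pow, hxp, inv_one]⟩ }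
  have hWmem : ∀ x, x ∈ W ↔ x ∈ Q ∧ x ∈ Subgroup.centralizer (Q : Set G) ∧ x ^ p = 1 :=
    fun x => Iff.rfl
  have hWQ : W ≤ Q := fun x hx => hx.1
  have hWne : W ≠ ⊥ := by
    have : Nontrivial Q := (Subgroup.nontrivial_iff_ne_bot Q).mpr hQne
    have : Nontrivial (Subgroup.center Q) := hQp.center_nontrivial
    have hZp : IsPGroup p (Subgroup.center Q) := hQp.to_subgroup _
    have hdvd : p ∣ Nat.card (Subgroup.center Q) := by
      rcases hZp.card_eq_or_dvd with h | h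
      · exact absurd h (Finite.one_lt_card_iff_nontrivial.mpr inferInstance).ne'
      · exact h
    obtain ⟨z, hz⟩ := exists_prime_orderOf_dvd_card' p hdvd
    intro hbot
    have hzW : ((z : Q) : G) ∈ W := by
      refine ⟨(z : Q).2, ?_, ?_⟩
      · rw [Subgroup.mem_centralizer_iff]
        intro q hq
        have h1 := Subgroup.mem_center_iff.mp z.2 ⟨q, hq⟩
        exact congrArg Subtype.val h1
      · have h1 : z ^ p = 1 := by rw [← hz]; exact pow_orderOf_eq_one z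
        have h2 := congrArg (fun w : Subgroup.center Q => ((w : Q) : G)) h1
        simpa using h2
    rw [hbot, Subgroup.mem_bot] at hzW
    have hz1 : z = 1 := Subtype.ext (Subtype.ext hzW)
    rw [hz1, orderOf_one] at hz
    exact (Fact.out : p.Prime).one_lt.ne hz
  have hWn : M ≤ Subgroup.normalizer (W : Set G) := by
    apply le_normalizer_of_conj_mem'
    rintro m hm x ⟨hx, hxc, hxp⟩
    refine ⟨conj_mem_of_le_normalizer hQn hm hx, ?_, ?_⟩
    · rw [Subgroup.mem_centralizer_iff]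
      intro q hq
      have hq' : m⁻¹ * q * m⁻¹⁻¹ ∈ Q := conj_mem_of_le_normalizer hQn (M.inv_mem hm) hq
      have h1 := Subgroup.mem_centralizer_iff.mp hxc _ hq'
      calc q * (m * x * m⁻¹) = m * ((m⁻¹ * q * m⁻¹⁻¹) * x) * m⁻¹ := by group
        _ = m * (x * (m⁻¹ * q * m⁻¹⁻¹)) * m⁻¹ := by rw [h1]
        _ = m * x * m⁻¹ * q := by group
    · rw [conj_pow, hxp, mul_one, mul_inv_cancel]
  -- a minimal invariant subgroup
  let S : Set (Subgroup G) :=
    {V | V ≠ ⊥ ∧ V ≤ W ∧ M ≤ Subgroup.normalizer (V : Set G)}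
  obtain ⟨V, ⟨hVne, hVW, hVn⟩, hmin⟩ :=
    Set.exists_min_image S (fun V : Subgroup G => Nat.card V) (Set.toFinite S)
      ⟨W, hWne, le_refl W, hWn⟩
  have hVp : IsPGroup p V := hQp.to_le (hVW.trans hWQ)
  have hVea : Cfsg.IsElementaryAbelian p V := by
    refine ⟨⟨⟨fun a b => Subtype.ext ?_⟩⟩, fun a ha => (hVW ha).2.2⟩
    exact Subgroup.mem_centralizer_iff.mp (hVW b.2).2.1 a (hVW a.2).1
  refine ⟨V, hVne, hVW.trans hWQ, hVn, hVea, ?_⟩
  intro a haM hq
  obtain ⟨D, hDM, hDn, -, hDp, haD⟩ := quad_stable_sub hp V M hVea hVn h2 a haM hq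
  obtain ⟨v, hvV, hv1, hvD⟩ :=
    exists_fixed_of_pow_mem_centralizer V D hVp hVne (hDM.trans hVn) hDp
  -- the fixed points of `D` on `V`
  have hCne : V ⊓ Subgroup.centralizer (D : Set G) ≠ ⊥ := by
    intro hbot
    have : v ∈ V ⊓ Subgroup.centralizer (D : Set G) :=
      ⟨hvV, Subgroup.mem_centralizer_iff.mpr fun d hd => hvD d hd⟩
    rw [hbot, Subgroup.mem_bot] at this
    exact hv1 this
  have hCn : M ≤ Subgroup.normalizer ((V ⊓ Subgroup.centralizer (D : Set G) : Subgroup G) : Set G) := by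
    apply le_normalizer_of_conj_mem'
    rintro m hm x ⟨hxV, hxc⟩
    refine ⟨conj_mem_of_le_normalizer hVn hm hxV, ?_⟩
    show m * x * m⁻¹ ∈ Subgroup.centralizer (D : Set G)
    rw [Subgroup.mem_centralizer_iff]
    intro d hd
    have hd' : m⁻¹ * d * m⁻¹⁻¹ ∈ D := hDn m⁻¹ (M.inv_mem hm) d hd
    have h1 := Subgroup.mem_centralizer_iff.mp hxc _ hd'
    calc d * (m * x * m⁻¹) = m * ((m⁻¹ * d * m⁻¹⁻¹) * x) * m⁻¹ := by group
      _ = m * (x * (m⁻¹ * d * m⁻¹⁻¹)) * m⁻¹ := by rw [h1]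
      _ = m * x * m⁻¹ * d := by group
  have hcard := hmin (V ⊓ Subgroup.centralizer (D : Set G))
    ⟨hCne, inf_le_left.trans hVW, hCn⟩
  have heq : V ⊓ Subgroup.centralizer (D : Set G) = V :=
    Subgroup.eq_of_le_of_card_ge inf_le_left hcard
  rw [Subgroup.mem_centralizer_iff]
  intro w hw
  have hwc : w ∈ Subgroup.centralizer (D : Set G) := by
    have : w ∈ V ⊓ Subgroup.centralizer (D : Set G) := by rw [heq]; exact hw
    exact this.2
  exact (Subgroup.mem_centralizer_iff.mp hwc a haD).symm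

/-- **[BASE]** -/
theorem pkgBase (hF1 : Cfsg.Agent.Lib.Helper2.PP.PkgF1.{u}) :
    Cfsg.Agent.Lib.Helper2.PP.PkgBase.{u} := by
  intro G _ _ p _ hp M N hyp hQne
  have hQn : M ≤ Subgroup.normalizer ((Cfsg.Agent.Lib.Helper2.PP.Qof p M : Subgroup G) : Set G) :=
    le_normalizer_of_conj_mem' fun m hm q hq => Cfsg.Agent.Lib.Helper2.PP.Qof_conj_mem hm hq
  obtain ⟨V, hVne, hVQ, hVn, hVea, hquad⟩ :=
    base_core hp M (Cfsg.Agent.Lib.Helper2.PP.Qof p M)
      (Cfsg.Agent.Lib.Helper2.PP.Qof_isPGroup p M) hQne hQn hyp.tM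
  have hVcomm : ∀ a ∈ V, ∀ b ∈ V, a * b = b * a := by
    intro a ha b hb
    have := hVea.1.is_comm.comm ⟨a, ha⟩ ⟨b, hb⟩
    exact congrArg Subtype.val this
  have hVV : ⁅V, V⁆ = ⊥ := by
    rw [eq_bot_iff, Subgroup.commutator_le]
    intro a ha b hb
    rw [Subgroup.mem_bot, commutatorElement_eq_one_iff_mul_comm]
    exact hVcomm a ha b hb
  have hQNV : ⁅Cfsg.Agent.Lib.Helper2.PP.Qof p N, V⁆ ≤ V := by
    rw [Subgroup.commutator_le]
    intro q hq v hv
    rw [commutatorElement_def]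
    exact V.mul_mem (conj_mem_of_le_normalizer hVn (hyp.qN hq) hv) (V.inv_mem hv)
  have hleN : V ≤ Cfsg.Agent.Lib.Helper2.PP.Qof p N := by
    apply hF1 hp N V hyp.tN hyp.cN (hVQ.trans hyp.qM)
    rw [eq_bot_iff, ← hVV]
    exact Subgroup.commutator_mono hQNV (le_refl V)
  refine ⟨V, hVne, hVn, hVQ, hleN, hVea, ?_⟩
  intro X hX hXq
  rw [eq_bot_iff, Subgroup.commutator_le]
  intro v hv a ha
  rw [Subgroup.mem_bot, commutatorElement_eq_one_iff_mul_comm]
  have haM : a ∈ M := hyp.qN (hX ha)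
  have hza : Subgroup.zpowers a ≤ X := by
    rw [Subgroup.zpowers_le]
    exact ha
  have hq : ⁅⁅V, Subgroup.zpowers a⁆, Subgroup.zpowers a⁆ = ⊥ := by
    rw [eq_bot_iff, ← hXq]
    exact Subgroup.commutator_mono (Subgroup.commutator_mono (le_refl V) hza) hza
  exact Subgroup.mem_centralizer_iff.mp (hquad a haM hq) v hv

end Cfsg.Agent.Lib.Helper47.PP
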