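import Mathlib
import Cfsg.Prelude.Def_Solvable
import Cfsg.Prelude.Def_CaseTheorems
import Cfsg.Agent.Lib.Helper47.Basic
import Cfsg.Agent.Lib.Helper2.PP.Defs

/-!
# Project PP (S3753, Bender's primitive pairs): the case `p = 2`

If all Sylow `2`-subgroups of `M₁` and `M₂` are abelian and `p = 2`, then `O_2(M_i)` is the
Sylow `2`-subgroup of `M_i`, the two cores coincide, and primitivity gives `M₁ = M₂`.
-/

set_option autoImplicit false

namespace Cfsg.Agent.Lib.Helper47.PP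

open Cfsg.Agent.Lib.Helper47

universe u

/-- If `C(O_p(M)) ≤ O_p(M)` and the Sylow `p`-subgroups of `M` are commutative, every
`p`-subgroup of `M` lies in `O_p(M)`. -/
theorem le_pCore_of_comm_sylow {M : Type*} [Group M] [Finite M] {p : ℕ} [Fact p.Prime]
    (hc : Subgroup.centralizer (Cfsg.pCore p M : Set M) ≤ Cfsg.pCore p M)
    (hab : ∀ S : Sylow p M, IsMulCommutative (S : Subgroup M))
    (R : Subgroup M) (hR : IsPGroup p R) : R ≤ Cfsg.pCore p M := by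
  obtain ⟨S, hS⟩ := hR.exists_le_sylow
  refine hS.trans (le_trans ?_ hc)
  intro s hs
  rw [Subgroup.mem_centralizer_iff]
  intro q hq
  have hqS : q ∈ (S : Subgroup M) := pCore_le_sylow S hq
  have := (hab S).is_comm.comm ⟨q, hqS⟩ ⟨s, hs⟩
  exact congrArg Subtype.val this

/-- The case `p = 2` of Bender's theorem on primitive pairs. -/
theorem p2_core {G : Type*} [Group G] [Finite G] {p : ℕ} [Fact p.Prime] (hp2 : p = 2)
    (M₁ M₂ : Subgroup G) (hne : M₁ ≠ M₂)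
    (hP : ∀ A : Subgroup G, A ≠ ⊥ → A ≤ M₁ ⊓ M₂ →
      (M₁ ≤ Subgroup.normalizer (A : Set G) → M₂ ⊓ Subgroup.normalizer (A : Set G) = M₁ ⊓ M₂) ∧
      (M₂ ≤ Subgroup.normalizer (A : Set G) → M₁ ⊓ Subgroup.normalizer (A : Set G) = M₁ ⊓ M₂))
    (hc₁ : Subgroup.centralizer (Cfsg.pCore p ↥M₁ : Set ↥M₁) ≤ Cfsg.pCore p ↥M₁)
    (hc₂ : Subgroup.centralizer (Cfsg.pCore p ↥M₂ : Set ↥M₂) ≤ Cfsg.pCore p ↥M₂)
    (hO : (Cfsg.pCore p ↥M₁).map M₁.subtype ⊔ (Cfsg.pCore p ↥M₂).map M₂.subtype ≤ M₁ ⊓ M₂)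
    (h1 : ∀ S : Sylow 2 ↥M₁, IsMulCommutative (S : Subgroup ↥M₁))
    (h2 : ∀ S : Sylow 2 ↥M₂, IsMulCommutative (S : Subgroup ↥M₂)) : False := by
  subst hp2
  have hQ1 : IsPGroup 2 ((Cfsg.pCore 2 ↥M₁).map M₁.subtype) := (pCore_isPGroup 2 ↥M₁).map _
  have hQ2 : IsPGroup 2 ((Cfsg.pCore 2 ↥M₂).map M₂.subtype) := (pCore_isPGroup 2 ↥M₂).map _
  have hO1 : (Cfsg.pCore 2 ↥M₁).map M₁.subtype ≤ M₁ ⊓ M₂ := le_sup_left.trans hO
  have hO2 : (Cfsg.pCore 2 ↥M₂).map M₂.subtype ≤ M₁ ⊓ M₂ := le_sup_right.trans hO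
  -- the two cores coincide
  have h21 : (Cfsg.pCore 2 ↥M₂).map M₂.subtype ≤ (Cfsg.pCore 2 ↥M₁).map M₁.subtype := by
    intro x hx
    have hxM : x ∈ M₁ := (hO2 hx).1
    have hle := le_pCore_of_comm_sylow hc₁ h1
      (((Cfsg.pCore 2 ↥M₂).map M₂.subtype).subgroupOf M₁) hQ2.comap_subtype
    exact ⟨⟨x, hxM⟩, hle (Subgroup.mem_subgroupOf.mpr hx), rfl⟩
  have h12 : (Cfsg.pCore 2 ↥M₁).map M₁.subtype ≤ (Cfsg.pCore 2 ↥M₂).map M₂.subtype := by
    intro x hx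
    have hxM : x ∈ M₂ := (hO1 hx).2
    have hle := le_pCore_of_comm_sylow hc₂ h2
      (((Cfsg.pCore 2 ↥M₁).map M₁.subtype).subgroupOf M₂) hQ1.comap_subtype
    exact ⟨⟨x, hxM⟩, hle (Subgroup.mem_subgroupOf.mpr hx), rfl⟩
  have heq : (Cfsg.pCore 2 ↥M₁).map M₁.subtype = (Cfsg.pCore 2 ↥M₂).map M₂.subtype :=
    le_antisymm h12 h21
  -- normalizers
  have hN1 : M₁ ≤ Subgroup.normalizer (((Cfsg.pCore 2 ↥M₁).map M₁.subtype : Subgroup G) : Set G) := by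
    intro m hm
    rw [Subgroup.mem_normalizer_iff]
    intro x
    constructor
    · rintro ⟨q, hq, rfl⟩
      exact ⟨⟨m, hm⟩ * q * ⟨m, hm⟩⁻¹,
        (Cfsg.pCore_normal 2 ↥M₁).conj_mem q hq ⟨m, hm⟩, rfl⟩
    · rintro ⟨q, hq, hqx⟩
      refine ⟨⟨m, hm⟩⁻¹ * q * ⟨m, hm⟩, ?_, ?_⟩
      · have := (Cfsg.pCore_normal 2 ↥M₁).conj_mem q hq ⟨m, hm⟩⁻¹
        rwa [inv_inv] at this
      · show m⁻¹ * (q : G) * m = x
        have hqx' : (q : G) = m * x * m⁻¹ := hqx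
        rw [hqx']
        group
  have hN2 : M₂ ≤ Subgroup.normalizer (((Cfsg.pCore 2 ↥M₁).map M₁.subtype : Subgroup G) : Set G) := by
    rw [heq]
    intro m hm
    rw [Subgroup.mem_normalizer_iff]
    intro x
    constructor
    · rintro ⟨q, hq, rfl⟩
      exact ⟨⟨m, hm⟩ * q * ⟨m, hm⟩⁻¹,
        (Cfsg.pCore_normal 2 ↥M₂).conj_mem q hq ⟨m, hm⟩, rfl⟩
    · rintro ⟨q, hq, hqx⟩
      refine ⟨⟨m, hm⟩⁻¹ * q * ⟨m, hm⟩, ?_, ?_⟩
      · have := (Cfsg.pCore_normal 2 ↥M₂).conj_mem q hq ⟨m, hm⟩⁻¹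
        rwa [inv_inv] at this
      · show m⁻¹ * (q : G) * m = x
        have hqx' : (q : G) = m * x * m⁻¹ := hqx
        rw [hqx']
        group
  by_cases hbot : (Cfsg.pCore 2 ↥M₁).map M₁.subtype = ⊥
  · -- both groups are trivial
    have hM1 : M₁ = ⊥ := by
      rw [eq_bot_iff]
      intro m hm
      have hb : Cfsg.pCore 2 ↥M₁ = ⊥ := by
        rw [eq_bot_iff]
        intro q hq
        have : (q : G) ∈ (Cfsg.pCore 2 ↥M₁).map M₁.subtype := ⟨q, hq, rfl⟩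
        rw [hbot, Subgroup.mem_bot] at this
        exact Subgroup.mem_bot.mpr (Subtype.ext this)
      have hmem : (⟨m, hm⟩ : ↥M₁) ∈ Subgroup.centralizer (Cfsg.pCore 2 ↥M₁ : Set ↥M₁) := by
        rw [Subgroup.mem_centralizer_iff]
        intro q hq
        rw [hb, SetLike.mem_coe, Subgroup.mem_bot] at hq
        rw [hq, one_mul, mul_one]
      have := hc₁ hmem
      rw [hb, Subgroup.mem_bot] at this
      exact Subgroup.mem_bot.mpr (congrArg Subtype.val this)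
    have hM2 : M₂ = ⊥ := by
      rw [eq_bot_iff]
      intro m hm
      have hb : Cfsg.pCore 2 ↥M₂ = ⊥ := by
        rw [eq_bot_iff]
        intro q hq
        have : (q : G) ∈ (Cfsg.pCore 2 ↥M₂).map M₂.subtype := ⟨q, hq, rfl⟩
        rw [← heq, hbot, Subgroup.mem_bot] at this
        exact Subgroup.mem_bot.mpr (Subtype.ext this)
      have hmem : (⟨m, hm⟩ : ↥M₂) ∈ Subgroup.centralizer (Cfsg.pCore 2 ↥M₂ : Set ↥M₂) := by
        rw [Subgroup.mem_centralizer_iff]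
        intro q hq
        rw [hb, SetLike.mem_coe, Subgroup.mem_bot] at hq
        rw [hq, one_mul, mul_one]
      have := hc₂ hmem
      rw [hb, Subgroup.mem_bot] at this
      exact Subgroup.mem_bot.mpr (congrArg Subtype.val this)
    exact hne (hM1.trans hM2.symm)
  · obtain ⟨ha, hb⟩ := hP _ hbot hO1
    have e1 := ha hN1
    have e2 := hb hN2
    have hM2 : M₂ ≤ M₁ := by
      have : M₂ ⊓ Subgroup.normalizer (((Cfsg.pCore 2 ↥M₁).map M₁.subtype : Subgroup G) : Set G)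
          = M₂ := inf_eq_left.mpr hN2
      rw [this] at e1
      rw [e1]
      exact inf_le_left
    have hM1 : M₁ ≤ M₂ := by
      have : M₁ ⊓ Subgroup.normalizer (((Cfsg.pCore 2 ↥M₁).map M₁.subtype : Subgroup G) : Set G)
          = M₁ := inf_eq_left.mpr hN1
      rw [this] at e2
      rw [e2]
      exact inf_le_right
    exact hne (le_antisymm hM1 hM2)

/-- **[P2]** -/
theorem pkgTwo : Cfsg.Agent.Lib.Helper2.PP.PkgTwo.{u} := by
  intro G _ _ M₁ M₂ hne hP hc₁ hc₂ hO h1 h2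
  exact p2_core (p := 2) rfl M₁ M₂ hne hP hc₁ hc₂ hO h1 h2

end Cfsg.Agent.Lib.Helper47.PP
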